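import Mathlib
import Cfsg.Agent.Lib.Helper6.BG.S1437Defs
import Cfsg.Agent.Lib.Helper1.SZInternal
import Cfsg.Agent.Lib.Helper23.Compl

/-!
# S1437 package PK7b (helper21): `C_Q(D) = C_Q(D₁)` for every complement `D` of the normal Sylow
`q`-subgroup `Q` of `N` (Schur–Zassenhaus conjugacy by an element of `Q`, and `C_Q(D₁) ⊴ N`).
-/

set_option autoImplicit false

namespace Cfsg.Agent.Lib.Helper21.BG37

universe u

open scoped Pointwise

/-- Conjugating by `n ∈ Q` carries `C_Q(D)` into `C_Q(n D n⁻¹)`. -/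
theorem conj_mem_inf_centralizer {G : Type*} [Group G] (Q D D' : Subgroup G) (n : G) (hn : n ∈ Q)
    (h : MulAut.conj n • D = D') {x : G} (hx : x ∈ Q ⊓ Subgroup.centralizer (D : Set G)) :
    n * x * n⁻¹ ∈ Q ⊓ Subgroup.centralizer (D' : Set G) := by
  refine ⟨Q.mul_mem (Q.mul_mem hn hx.1) (Q.inv_mem hn), ?_⟩
  show n * x * n⁻¹ ∈ Subgroup.centralizer (D' : Set G)
  rw [Subgroup.mem_centralizer_iff]
  intro d hd
  have hd2 : d ∈ MulAut.conj n • D := by rw [h]; exact hd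
  obtain ⟨d', hd', rfl⟩ := (Subgroup.mem_smul_pointwise_iff_exists _ _ _).mp hd2
  have hc : d' * x = x * d' := (Subgroup.mem_centralizer_iff.mp hx.2) d' hd'
  simp only [MulAut.smul_def, MulAut.conj_apply]
  calc n * d' * n⁻¹ * (n * x * n⁻¹) = n * (d' * x) * n⁻¹ := by group
    _ = n * (x * d') * n⁻¹ := by rw [hc]
    _ = n * x * n⁻¹ * (n * d' * n⁻¹) := by group

theorem pk7b : Cfsg.Agent.Lib.Helper6.BG37.PK7b.{u} := by
  intro G _ _ q _ N Q D₁ D hQN hQ hqidx hNQ hD₁ hD hnorm _ _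
  have hqp : q.Prime := Fact.out
  have hc1 := Cfsg.Agent.Lib.Helper23.card_of_isComplIn hD₁
  have hc2 := Cfsg.Agent.Lib.Helper23.card_of_isComplIn hD
  have hQpos : 0 < Nat.card Q := Nat.card_pos
  have hcard : Nat.card D = Nat.card D₁ := by
    have : Nat.card Q * Nat.card D = Nat.card Q * Nat.card D₁ := by rw [← hc1, ← hc2]
    exact Nat.eq_of_mul_eq_mul_left hQpos this
  have hrel : Nat.card Q * Q.relIndex N = Nat.card N := by
    have h := (Q.subgroupOf N).card_mul_index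
    rw [Nat.card_congr (Subgroup.subgroupOfEquivOfLe hQN).toEquiv] at h
    exact h
  have hrel2 : Q.relIndex N = Nat.card D₁ := by
    have : Nat.card Q * Q.relIndex N = Nat.card Q * Nat.card D₁ := by rw [hrel, hc1]
    exact Nat.eq_of_mul_eq_mul_left hQpos this
  have hcop : (Nat.card D₁).Coprime (Nat.card Q) := by
    obtain ⟨k, hk⟩ := hQ.exists_card_eq
    rw [hk]
    apply Nat.Coprime.pow_right
    rw [hrel2] at hqidx
    exact ((Nat.Prime.coprime_iff_not_dvd hqp).mpr hqidx).symm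
  have hD₁Q : D₁ ≤ Subgroup.normalizer (Q : Set G) := le_trans hD₁.2.1 hNQ
  have hDle : D ≤ Q ⊔ D₁ := by
    intro d hd
    obtain ⟨a, ha, b, hb, rfl⟩ := hD₁.2.2.2 d (hD.2.1 hd)
    exact Subgroup.mul_mem _ (Subgroup.mem_sup_left ha) (Subgroup.mem_sup_right hb)
  have hsolvQ : Group.IsSolvable Q := by
    haveI := hQ.isNilpotent
    infer_instance
  obtain ⟨n, hn, hconj⟩ := Cfsg.Agent.Lib.Helper1.sz_conj_internal Q D₁ D hD₁Q hcop
    (Or.inr hsolvQ) hDle hcard
  have hconj' : MulAut.conj n⁻¹ • D₁ = D := by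
    rw [← hconj, map_inv, inv_smul_smul]
  have hnN : n ∈ Subgroup.normalizer
      ((Q ⊓ Subgroup.centralizer (D₁ : Set G) : Subgroup G) : Set G) := hnorm (hQN hn)
  have hnN' : n⁻¹ ∈ Subgroup.normalizer
      ((Q ⊓ Subgroup.centralizer (D₁ : Set G) : Subgroup G) : Set G) := Subgroup.inv_mem _ hnN
  apply le_antisymm
  · intro x hx
    have h1 := conj_mem_inf_centralizer Q D D₁ n hn hconj hx
    have h2 := (Subgroup.mem_normalizer_iff.mp hnN' (n * x * n⁻¹)).mp h1
    have h3 : n⁻¹ * (n * x * n⁻¹) * n⁻¹⁻¹ = x := by group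
    rw [h3] at h2
    exact h2
  · intro x hx
    have h1 := (Subgroup.mem_normalizer_iff.mp hnN x).mp hx
    have h2 := conj_mem_inf_centralizer Q D₁ D n⁻¹ (Q.inv_mem hn) hconj' h1
    have h3 : n⁻¹ * (n * x * n⁻¹) * n⁻¹⁻¹ = x := by group
    rw [h3] at h2
    exact h2

end Cfsg.Agent.Lib.Helper21.BG37
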