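import Mathlib
import Cfsg.Agent.Lib.Helper6.BG.S1437Defs
import Cfsg.Agent.Lib.Helper91.Coprime
import Cfsg.Agent.Lib.Helper48.Coprime
import Cfsg.Agent.Lib.Helper57.WieA

/-!
# S1437 package PKF (helper21): coprime factorisation `Q = C_Q(D) [Q, D]`.
-/

set_option autoImplicit false

namespace Cfsg.Agent.Lib.Helper21.BG37

universe u

open scoped commutatorElement

theorem pkF : Cfsg.Agent.Lib.Helper6.BG37.PKF.{u} := by
  intro G _ _ q _ Q D hQ hqD hDQ x hx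
  have hqp : q.Prime := Fact.out
  have hcop : (Nat.card D).Coprime (Nat.card Q) := by
    obtain ⟨n, hn⟩ := hQ.exists_card_eq
    rw [hn]
    exact Nat.Coprime.pow_right n ((Nat.Prime.coprime_iff_not_dvd hqp).mpr hqD).symm
  have hsolv : Group.IsSolvable D ∨ Group.IsSolvable Q := Or.inr (by
    haveI := hQ.isNilpotent
    infer_instance)
  have hle : ⁅Q, D⁆ ≤ Q := Cfsg.Agent.Lib.Helper48.commutator_le_of_le_normalizer Q D hDQ
  have hnorm : D ≤ Subgroup.normalizer ((⁅Q, D⁆ : Subgroup G) : Set G) := by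
    intro a ha
    apply Cfsg.Agent.Lib.Helper57.Wie.mem_normalizer_of_conj_mem
    apply Cfsg.Agent.Lib.Helper48.conj_mem_commutator a
    · intro k hk
      exact (Subgroup.le_normalizer_iff.mp hDQ) a ha k hk
    · intro k hk
      exact D.mul_mem (D.mul_mem ha hk) (D.inv_mem ha)
  have hinv : ∀ a ∈ D, a⁻¹ * x⁻¹ * a * x ∈ ⁅Q, D⁆ := by
    intro a ha
    have h1 : ⁅a⁻¹, x⁻¹⁆ ∈ ⁅D, Q⁆ :=
      Subgroup.commutator_mem_commutator (D.inv_mem ha) (Q.inv_mem hx)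
    rw [Subgroup.commutator_comm] at h1
    have h2 : a⁻¹ * x⁻¹ * a * x = ⁅a⁻¹, x⁻¹⁆ := by rw [commutatorElement_def]; group
    rw [h2]; exact h1
  obtain ⟨d, hd, hc⟩ := Cfsg.Agent.Lib.Helper91.exists_mem_centralizer_coset D Q hDQ hcop hsolv
    ⁅Q, D⁆ hle hnorm x hx hinv
  exact ⟨x * d, ⟨Q.mul_mem hx (hle hd), hc⟩, d⁻¹, Subgroup.inv_mem _ hd, by group⟩

end Cfsg.Agent.Lib.Helper21.BG37
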